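import Mathlib
import Cfsg.Agent.Lib.Co1J.Five

/-! Subgroups of order five in the centraliser of an octad involution of `Co1` (helper74). -/

set_option autoImplicit false
set_option maxRecDepth 100000

namespace H74.CoJ

open Cfsg Subgroup H15 H16 H95 Cfsg.Spor H30.K
open scoped commutatorElement

theorem wd_reverse {G : Type*} [Group G] {x : ℕ → G} : ∀ {w : List ℕ}, (∀ j ∈ w, x j * x j = 1) →
    wd x w.reverse = (wd x w)⁻¹
  | [], _ => by simp [wd_nil]
  | j :: w, h => by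
    rw [List.reverse_cons, wd_append, wd_reverse fun k hk => h k (List.mem_cons_of_mem _ hk), wd_cons, wd_cons,
      wd_nil, mul_one, mul_inv_rev, inv_eq_of_mul_eq_one_right (h j List.mem_cons_self)]

/-- words in the extraspecial group -/
def qW (n : ℕ) : List ℕ := [8, 9, 10, 11, 12].filter fun j => n.testBit (j - 8)

theorem q_spec {n j : ℕ} (h : j ∈ qW n) : x j * x j = 1 ∧ x j ∈ NO (ofMask oct0) := by
  have h1 := (by decide +kernel : ∀ j ∈ [8, 9, 10, 11, 12], hEq xF [j, j] [] = true ∧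
    ∀ i < 24, oct0.testBit i = true → xF j (e8C i) = e8C i) j (List.mem_filter.1 h).1
  refine ⟨by simpa [wd] using rel h1.1, mem_NO.2 (forall_pt.2 fun i hi hm => ?_)⟩
  exact (isF_x _).smul_eq (code_e8C hi) (code_e8C hi) (by rw [sqNorm_e8]; norm_num)
    (h1.2 i hi ((pt_mem_ofMask hi).1 hm))

theorem qW_mem (n : ℕ) : wd x (qW n) ∈ NO (ofMask oct0) :=
  list_prod_mem fun _ h => let ⟨_, h1, e⟩ := List.mem_map.1 h; e ▸ (q_spec h1).2

theorem big {Q : Subgroup Co1} (h : CT Q (mk1 ε)) {i j : ℕ} (hi : i < 4) (hj : j < 4) :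
    Nat.card (Q ⊓ centralizer {mk1 (x 6 ^ (i + 1) * x 7 ^ (j + 1))} : Subgroup Co1) ≠ 32 := by
  intro h32
  have c := allLt_iff.1 (allLt_iff.1 (by decide +kernel : allLt 4 (fun i => allLt 4 fun j => mapK (fun n => wF xF
    (qW n ++ (List.replicate (i + 1) 6 ++ List.replicate (j + 1) 7) ++ (qW n).reverse) TV)
    (List.range 17) [] nd) = true) i hi) j hj
  rw [mapK_eq, List.append_nil] at c
  have c1 := List.inj_on_of_nodup_map (List.nodup_reverse.1 (nodup_of_nd c))
  set y := x 6 ^ (i + 1) * x 7 ^ (j + 1) with hy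
  have y5 : y ^ 5 = 1 := by
    have : Commute (x 6) (x 7) := rel2 (by decide +kernel)
    rw [hy, (this.pow_pow _ _).mul_pow, ← pow_mul, ← pow_mul, mul_comm _ 5, mul_comm _ 5, pow_mul, pow_mul,
      b_pow, h_pow]; simp
  have e : ∀ n, wd x (qW n ++ (List.replicate (i + 1) 6 ++ List.replicate (j + 1) 7) ++ (qW n).reverse) =
      wd x (qW n) * y * (wd x (qW n))⁻¹ := fun n => by
    rw [wd_append, wd_append, wd_append, wd_replicate, wd_replicate, wd_reverse fun k hk => (q_spec hk).1]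
  have h1 := ((centralizer {mk1 y}).subgroupOf Q).card_mul_index
  rw [← inf_subgroupOf_left, Nat.card_congr (subgroupOfEquivOfLe inf_le_left).toEquiv, h32, h.cardQ,
    inf_subgroupOf_left] at h1
  have h2 := Nat.card_le_card_of_injective (fun n : Fin 17 => ((⟨mk1 (wd x (qW n)), h.mem_Q oct0_mem (qW_mem n)⟩ : Q) :
      Q ⧸ (centralizer {mk1 y}).subgroupOf Q)) fun a b hab => by
    have h0 := mem_subgroupOf.1 ((QuotientGroup.eq (s := (centralizer {mk1 y}).subgroupOf Q)).1 hab)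
    have h3 : ((mk1 (wd x (qW a)))⁻¹ * mk1 (wd x (qW b))) * mk1 y =
      mk1 y * ((mk1 (wd x (qW a)))⁻¹ * mk1 (wd x (qW b))) := mem_cent_iff.1 h0
    rw [← map_inv, ← map_mul] at h3
    have h4 := comm_of_pow (by decide) y5 h3
    refine Fin.ext (c1 (List.mem_range.2 a.2) (List.mem_range.2 b.2)
      ((isF_wF isF_x _ _ _ code_TV norm_TV).eq_code ?_))
    rw [e, show wd x (qW a) * y * (wd x (qW a))⁻¹ = wd x (qW b) * y * (wd x (qW b))⁻¹ by
      calc _ = wd x (qW a) * (y * ((wd x (qW a))⁻¹ * wd x (qW b))) * (wd x (qW b))⁻¹ := by group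
        _ = _ := by rw [← h4]; group, ← e]
    exact isF_wF isF_x _ _ _ code_TV norm_TV
  rw [← Subgroup.index_eq_card, Nat.card_eq_fintype_card, Fintype.card_fin] at h2
  omega

theorem h_mem : mk1 (x 7) ∈ θ.range := by
  have k : ∀ i < 5, yq i ∈ θ.range := fun i hi => range_θ ▸ H54.mem_gen yq hi
  rw [← wd1, rel (w := hW) (by decide +kernel), map_wd]
  refine list_prod_mem fun _ h => ?_
  obtain ⟨j, hj, rfl⟩ := List.mem_map.1 h
  have := (by decide : ∀ j ∈ hW, j < 4) j hj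
  interval_cases j
  exacts [k 0 (by norm_num), k 1 (by norm_num), k 2 (by norm_num), by
    rw [show x 3 = x 4 * x 5 by simpa [wd] using rel (v := [3]) (w := [4, 5]) (by decide +kernel), map_mul]
    exact mul_mem (k 3 (by norm_num)) (k 4 (by norm_num))]

theorem conj_h : mk1 (x 15) * mk1 (x 7) * (mk1 (x 15))⁻¹ = mk1 (x 6) := by
  rw [← map_mul, rel2 (c := 6) (d := 15) (by decide +kernel), map_mul, mul_inv_cancel_right]

theorem orderOf_h1 : orderOf (mk1 (x 7)) = 5 := by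
  rw [← orderOf_b1, ← conj_h]; exact ((MulAut.conj (mk1 (x 15))).orderOf_eq (mk1 (x 7))).symm

theorem ex_pow {G : Type*} [Group G] [Finite G] {a b : G} (h : a ∈ zpowers b) : ∃ i < orderOf b, a = b ^ i := by
  classical
  obtain ⟨i, hi, e⟩ := Finset.mem_image.1 (mem_zpowers_iff_mem_range_orderOf.1 h)
  exact ⟨i, Finset.mem_range.1 hi, e.symm⟩

theorem core {Q : Subgroup Co1} (h : CT Q (mk1 ε)) {u : Co1} (hu : u * mk1 ε = mk1 ε * u)
    (h5 : orderOf u = 5) (h32 : Nat.card (Q ⊓ centralizer {u} : Subgroup Co1) = 32) :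
    ∃ g : Co1, zpowers (g * u * g⁻¹) = zpowers (mk1 (x 6)) := by
  have c0 : Commute (mk1 (x 6)) (mk1 (x 7)) := (show Commute (x 6) (x 7) from rel2 (by decide +kernel)).map mk1
  have cm : ∀ (a : zpowers (mk1 (x 6))) (b : zpowers (mk1 (x 7))),
      Commute ((zpowers (mk1 (x 6))).subtype a) ((zpowers (mk1 (x 7))).subtype b) := by
    rintro ⟨_, n, rfl⟩ ⟨_, m, rfl⟩
    exact c0.zpow_zpow n m
  let ψ := MonoidHom.noncommCoprod _ _ cm
  have hi : Function.Injective ψ := by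
    rw [injective_iff_map_eq_one]
    rintro ⟨a, b⟩ h
    have h1 : (a : Co1) * b = 1 := h
    obtain ⟨j, hj⟩ := zpowers_le.2 h_mem b.2
    have h2 := b_mem (j := j) (by rw [hj, eq_inv_of_mul_eq_one_right h1]; exact inv_mem a.2)
    rw [h2, map_one] at hj
    rw [← hj, mul_one] at h1
    exact Prod.ext (Subtype.ext h1) (Subtype.ext hj.symm)
  have hl : ψ.range ≤ centralizer {mk1 ε} := by
    rintro _ ⟨⟨⟨_, n, rfl⟩, ⟨_, m, rfl⟩⟩, rfl⟩
    refine mul_mem (zpow_mem ?_ n) (zpow_mem ?_ m) <;> rw [mem_cent_iff, ← x0_eq, ← map_mul, ← map_mul]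
    exacts [congrArg mk1 (rel2 (by decide +kernel)), congrArg mk1 (rel2 (by decide +kernel))]
  have hp : IsPGroup 5 (zpowers (⟨u, mem_cent_iff.2 hu⟩ : centralizer {mk1 ε})) :=
    IsPGroup.of_card (n := 1) (by rw [Nat.card_zpowers, ← orderOf_coe, h5]; norm_num)
  have hx : ¬ 5 ∣ (ψ.range.subgroupOf (centralizer {mk1 ε})).index := by
    have := (ψ.range.subgroupOf (centralizer {mk1 ε})).card_mul_index
    rw [Nat.card_congr (subgroupOfEquivOfLe hl).toEquiv, ← Nat.card_congr (ψ.ofInjective hi).toEquiv,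
      Nat.card_prod, Nat.card_zpowers, Nat.card_zpowers, orderOf_b1, orderOf_h1, h.cardC] at this
    omega
  obtain ⟨g, hg⟩ := H74.Co1.exists_conj_mem_of_index Nat.prime_five hp hx
  obtain ⟨⟨a, b⟩, e⟩ := hg _ (mem_zpowers _)
  have e : (a : Co1) * b = g * u * (g : Co1)⁻¹ := e
  have o : orderOf ((g : Co1) * u * (g : Co1)⁻¹) = 5 := h5 ▸ (MulAut.conj (g : Co1)).orderOf_eq u
  obtain ⟨i, hi, ea⟩ := ex_pow a.2
  obtain ⟨j, hj, eb⟩ := ex_pow b.2
  rw [orderOf_b1] at hi
  rw [orderOf_h1] at hj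
  rcases j with _ | j
  · refine ⟨g, eq_of_le_of_card_ge (zpowers_le.2 ?_) (by rw [Nat.card_zpowers, Nat.card_zpowers, o, orderOf_b1])⟩
    rw [← e, eb, pow_zero, mul_one]; exact a.2
  rcases i with _ | i
  · refine ⟨mk1 (x 15) * g, eq_of_le_of_card_ge (zpowers_le.2 ?_) ?_⟩
    · rw [show mk1 (x 15) * g * u * (mk1 (x 15) * g)⁻¹ = mk1 (x 15) * (g * u * (g : Co1)⁻¹) * (mk1 (x 15))⁻¹ by
        group, ← e, ea, pow_zero, one_mul, eb, ← conj_pow, conj_h]
      exact pow_mem (mem_zpowers _) _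
    · rw [Nat.card_zpowers, Nat.card_zpowers, orderOf_b1, ← h5]
      exact ((MulAut.conj (mk1 (x 15) * g)).orderOf_eq u).ge
  refine absurd ?_ (big h (i := i) (j := j) (by omega) (by omega))
  have n : (g : Co1) ∈ normalizer (Q : Set Co1) := h.norm _ (mem_cent_iff.1 g.2)
  rw [map_mul, map_pow, map_pow, ← ea, ← eb, e, ← h32, ← card_map_of_injective (f := (MulAut.conj (g : Co1)).toMonoidHom)
    (MulAut.conj (g : Co1)).injective (K := Q ⊓ centralizer {u})]
  congr 2
  ext v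
  rw [mem_map_conj, mem_inf, mem_inf, mem_cent_iff, mem_cent_iff]
  refine and_congr ⟨conj_mem_of_normalizer' n, fun hv => by
    simpa [mul_assoc] using conj_mem_of_normalizer n hv⟩ ⟨fun hv => ?_, fun hv => ?_⟩
  · calc _ = (g : Co1)⁻¹ * (v * (g * u * (g : Co1)⁻¹)) * g := by group
      _ = _ := by rw [hv]; group
  · calc _ = (g : Co1) * ((g : Co1)⁻¹ * v * g * u) * (g : Co1)⁻¹ := by group
      _ = _ := by rw [hv]; group

theorem J2_nab : ¬ IsMulCommutative J2 := fun h => by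
  obtain ⟨j, hj⟩ := h_mem
  have := orderOf_h1
  rw [← hj, J2_center (j := j) fun k => h.is_comm.comm k j, map_one, orderOf_one] at this
  omega

/-- the layer of `5 × J2` and its centraliser -/
theorem layer_fin {G : Type*} [Group G] (e : G ≃* Co1) {X : Subgroup G}
    (hX : X.map e.toMonoidHom = zpowers (mk1 (x 6))) :
    IsoJ2 (layer (centralizer (X : Set G))) ∧ Nonempty (centralizer (((layer (centralizer (X : Set G))).map
      (Subgroup.subtype _) : Subgroup G) : Set G) ≃* alternatingGroup (Fin 5)) := by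
  let τ : J2 →* G := e.symm.toMonoidHom.comp θ
  have hτ : ∀ j, e (τ j) = θ j := fun j => e.apply_symm_apply _
  have ti : Function.Injective τ := e.symm.injective.comp θ_inj
  have mX : ∀ a, a ∈ X ↔ e a ∈ zpowers (mk1 (x 6)) := fun a => by
    rw [← hX]; exact (mem_map_iff_mem e.injective).symm
  have mC : ∀ d, d ∈ centralizer (X : Set G) ↔ ∃ a ∈ X, ∃ j, d = a * τ j := fun d => by
    have : d ∈ centralizer (X : Set G) ↔ e d * mk1 (x 6) = mk1 (x 6) * e d := by
      refine ⟨fun h => ?_, fun h a ha => e.injective ?_⟩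
      · have := congrArg e (h (e.symm (mk1 (x 6))) ((mX _).2 (by simp)))
        simpa using this.symm
      · obtain ⟨n, hn⟩ := (mX a).1 ha
        rw [map_mul, map_mul, ← hn]
        exact ((show Commute _ _ from h).zpow_right n).eq.symm
    rw [this, cent_b]
    refine ⟨fun ⟨a, ha, j, h⟩ => ⟨e.symm a, (mX _).2 (by simpa using ha), j, e.injective ?_⟩,
      fun ⟨a, ha, j, h⟩ => ⟨e a, (mX a).1 ha, j, by rw [h, map_mul, hτ]⟩⟩
    rw [map_mul, hτ, h, e.apply_symm_apply]
  have hY : τ.range ≤ centralizer (X : Set G) := by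
    rintro _ ⟨j, rfl⟩; exact (mC _).2 ⟨1, one_mem _, j, (one_mul _).symm⟩
  have hn : (τ.range.subgroupOf (centralizer (X : Set G))).Normal := ⟨fun y ⟨k, hk⟩ d => by
    obtain ⟨a, ha, j, h⟩ := (mC d).1 d.2
    refine ⟨j * k * j⁻¹, ?_⟩
    have := hY ⟨j * k * j⁻¹, rfl⟩ a ha
    simp only [coe_subtype, coe_mul, coe_inv, h, map_mul, map_inv] at this hk ⊢
    rw [← hk]
    calc _ = a * (τ j * τ k * (τ j)⁻¹) * a⁻¹ := by rw [this]; group
      _ = _ := by group⟩
  have hL : layer (centralizer (X : Set G)) = τ.range.subgroupOf _ := by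
    apply le_antisymm
    · rw [← H23.commutator_layer_self, commutator_le]
      intro d _ d' _
      obtain ⟨a, ha, j, h⟩ := (mC d).1 d.2
      obtain ⟨a', ha', j', h'⟩ := (mC d').1 d'.2
      refine ⟨⁅j, j'⁆, ?_⟩
      have h1 : Commute a (d' : G) := d'.2 a ha
      have h2 : Commute a' (τ j) := hY ⟨j, rfl⟩ a' ha'
      have h3 : Commute a (τ j) := hY ⟨j, rfl⟩ a ha
      have h4 : Commute a' (τ j') := hY ⟨j', rfl⟩ a' ha'
      simp only [coe_subtype, commutatorElement_def, coe_mul, coe_inv, map_mul, map_inv]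
      calc _ = τ j * (a' * τ j' * (τ j)⁻¹ * (τ j')⁻¹ * a'⁻¹) := by
            rw [mul_assoc a', mul_assoc a', ((h4.mul_right h2.inv_right).mul_right h4.inv_right).eq]; group
        _ = τ j * (d' : G) * (τ j)⁻¹ * (d' : G)⁻¹ := by rw [h']; group
        _ = a * (τ j * (d' : G) * (τ j)⁻¹) * a⁻¹ * (d' : G)⁻¹ := by
            rw [((h3.mul_right h1).mul_right h3.inv_right).eq]; group
        _ = _ := by rw [h]; group
    · exact H23.IsComponent.le_layer ⟨hn.isSubnormal, (H23.isQuasisimple_subgroupOf_iff hY).2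
        (H23.IsQuasisimple.of_mulEquiv (τ.ofInjective ti) (H23.isQuasisimple_of_isSimpleGroup J2_nab))⟩
  obtain ⟨f, hf, ef⟩ := cent_Y
  rw [hL, subgroupOf_map_subtype, inf_eq_left.2 hY]
  refine ⟨⟨(subgroupOfEquivOfLe hY).trans (τ.ofInjective ti).symm⟩,
    ⟨(MulEquiv.subgroupCongr ?_).trans ((e.symm.toMonoidHom.comp f).ofInjective (e.symm.injective.comp hf)).symm⟩⟩
  ext g
  have : g ∈ (e.symm.toMonoidHom.comp f).range ↔ e g ∈ f.range :=
    ⟨fun ⟨a, h⟩ => ⟨a, by rw [← h]; exact (e.apply_symm_apply _).symm⟩,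
      fun ⟨a, h⟩ => ⟨a, e.injective ((e.apply_symm_apply _).trans h)⟩⟩
  rw [this, ef]
  refine ⟨?_, ?_⟩
  · rintro h _ ⟨j, rfl⟩
    rw [← hτ, ← map_mul, ← map_mul, h _ ⟨j, rfl⟩]
  · rintro h _ ⟨j, rfl⟩
    exact e.injective (by rw [map_mul, map_mul, hτ, h _ ⟨j, rfl⟩])

theorem eqns_Syl : True := by
  have := @qW.eq_1
  trivial

end H74.CoJ
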